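import Cfsg.Agent.H928.Ad.Chev
import Cfsg.Agent.ChevStructure.FieldMap
import Cfsg.Agent.H673.OC.Fix

/-!
# Base change of the tabulated Chevalley groups and its fixed points (S4884, `q = 2`; helper673)

* `bc hD f` : `D.group F →* D.group K` for `f : F →+* K`; `bc_hm` : it is compatible with the root group data;
* `galAct` : the Galois group of `L` over `ZMod 2` acts on `D.group L`; `fx` : the hypotheses of `H673.OC.Fx`.
-/

set_option autoImplicit false
set_option linter.unusedSectionVars false

namespace Cfsg.Agent.H673.OC.Bc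

open CoxeterSystem Cfsg.Agent.ChevalleyStructure.CoxeterGeom Cfsg.Agent.Tits.Roots Cfsg.Agent.Tits.Core
  Cfsg.Agent.Tits.RootComb Cfsg.Agent.Nodes.Comb Cfsg.Agent.Nodes.Reps Cfsg.Agent.Nodes.BNOf Cfsg.Agent.Nodes.RGDLib
  Cfsg.Agent.Nodes.Bruhat Cfsg.Agent.Nodes.RGDChev Cfsg.Agent.KFacts.RgdField Cfsg.Agent.KFacts.RgdChevCoord
open Cfsg.Lie Cfsg.Agent.ChevalleyStructure Cfsg.Agent.ChevalleyStructure.Elts
open Cfsg.Agent.H928.Ad

universe u v w

section Map

variable {D : ChevalleyDatum} {F : Type u} [Field F] {K : Type v} [Field K] {E : Type w} [Field E]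

theorem glmap_xG (hD : InList D) (f : F →+* K) (r : ℕ) (t : F) :
    Matrix.GeneralLinearGroup.map f (xG hD r t) = xG hD r (f t) :=
  Units.ext (Cfsg.Agent.ChevStructure.FieldMap.x_map D f r t)

theorem glmap_nG (hD : InList D) (f : F →+* K) (r : ℕ) (t : F) :
    Matrix.GeneralLinearGroup.map f (nG hD r t) = nG hD r (f t) := by
  rw [nG_def, nG_def, map_mul, map_mul, glmap_xG, glmap_xG, map_neg, map_inv₀]

theorem glmap_hG (hD : InList D) (f : F →+* K) (r : ℕ) (t : F) :
    Matrix.GeneralLinearGroup.map f (hG hD r t) = hG hD r (f t) := by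
  rw [hG_def, hG_def, map_mul, glmap_nG, glmap_nG, map_neg, map_one]

theorem glmap_group (hD : InList D) (f : F →+* K) {g : GL D.Idx F} (hg : g ∈ D.group F) :
    Matrix.GeneralLinearGroup.map f g ∈ D.group K := by
  have h1 : D.group F ≤ (D.group K).comap (Matrix.GeneralLinearGroup.map f) := by
    refine (Subgroup.closure_le _).2 ?_
    rintro g ⟨r, t, e⟩
    have h2 : g = xG hD r t := by
      apply Units.ext
      rw [e, coe_xG]
      unfold ChevalleyDatum.x
      rw [dif_pos r.2]
    rw [SetLike.mem_coe, Subgroup.mem_comap, h2, glmap_xG]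
    exact xG_mem_group hD _ _
  exact h1 hg

theorem glmap_diag (hD : InList D) (f : F →+* K) {g : GL D.Idx F} (hg : g ∈ D.diagonalSubgroup F) :
    Matrix.GeneralLinearGroup.map f g ∈ D.diagonalSubgroup K := by
  have h1 : D.diagonalSubgroup F ≤ (D.diagonalSubgroup K).comap (Matrix.GeneralLinearGroup.map f) := by
    refine (Subgroup.closure_le _).2 ?_
    rintro g ⟨r, t, hr, ht, e⟩
    have h2 : g = hG hD r t := Units.ext (by rw [e, coe_hG])
    rw [SetLike.mem_coe, Subgroup.mem_comap, h2, glmap_hG]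
    exact hG_mem_diagonal hD hr ((map_ne_zero f).2 ht)
  exact h1 hg

/-- base change -/
def bc (hD : InList D) (f : F →+* K) : ↥(D.group F) →* ↥(D.group K) :=
  ((Matrix.GeneralLinearGroup.map f).comp (D.group F).subtype).codRestrict (D.group K)
    (fun g => glmap_group hD f g.2)

theorem coe_bc (hD : InList D) (f : F →+* K) (g : ↥(D.group F)) :
    (bc hD f g : GL D.Idx K) = Matrix.GeneralLinearGroup.map f (g : GL D.Idx F) := rfl

theorem bc_injective (hD : InList D) (f : F →+* K) : Function.Injective (bc hD f) := by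
  intro g h e
  have h1 := congrArg (fun g : ↥(D.group K) => ((g : GL D.Idx K) : Matrix D.Idx D.Idx K)) e
  apply Subtype.ext
  apply Units.ext
  ext a b
  exact f.injective (congrFun (congrFun h1 a) b)

theorem bc_comp (hD : InList D) (f : F →+* K) (g : K →+* E) (x : ↥(D.group F)) :
    bc hD g (bc hD f x) = bc hD (g.comp f) x := rfl

theorem bc_id (hD : InList D) (x : ↥(D.group F)) : bc hD (RingHom.id F) x = x := rfl

end Map

section Hm

variable {D : ChevalleyDatum} {l : ℕ} {M : CoxeterMatrix (Fin l)} (hp : IsType D l M) {F : Type u} [Field F]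
  {K : Type v} [Field K]

theorem bc_xc (f : F →+* K) {s : ℕ} (hs : s < D.nroots) (a : F) :
    bc hp.inList f (xc hp (vec D l s) a) = xc hp (vec D l s) (f a) := by
  apply Subtype.ext
  rw [coe_bc, coe_xc hp hs, coe_xc hp hs, glmap_xG]

theorem bc_nc (f : F →+* K) (i : Fin l) : bc hp.inList f (nc hp F i) = nc hp K i := by
  apply Subtype.ext
  change Matrix.GeneralLinearGroup.map f (nG hp.inList (D.simple i) 1) = nG hp.inList (D.simple i) 1
  rw [glmap_nG, map_one]

theorem bc_hm {W : Type*} [Group W] (cs : CoxeterSystem M W) (f : F →+* K) :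
    Hm cs hp.isCartan (TT D F) (nc hp F) (XX D l F) (TT D K) (nc hp K) (XX D l K) (bc hp.inList f) where
  T t ht := glmap_diag hp.inList f ht
  n i := bc_nc hp f i
  X z hz _ y hy := by
    obtain ⟨s, hs, rfl⟩ := (isRoot_iff hp cs z).1 hz
    change (y : GL D.Idx F) ∈ XV D l F (vec D l s) at hy
    change Matrix.GeneralLinearGroup.map f (y : GL D.Idx F) ∈ XV D l K (vec D l s)
    rw [XV_vec hp F hs, mem_rootSubgroup_iff hp.inList] at hy
    obtain ⟨a, ha⟩ := hy
    rw [XV_vec hp K hs, mem_rootSubgroup_iff hp.inList, ha, glmap_xG]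
    exact ⟨f a, rfl⟩

include hp in
/-- a torus element acting trivially on the root groups is trivial -/
theorem eq_one_of_tor [Finite K] {t : ↥(D.group K)}
    (h : ∀ s, s < D.nroots → ∀ a : K, t * xc hp (vec D l s) a * t⁻¹ = xc hp (vec D l s) a) : t = 1 := by
  have hZ := H70.OutCount.center_eq_bot (F := K) hp.inList
  have h1 : t ∈ Subgroup.center ↥(D.group K) := by
    have hG := G1_eq_top (K := K) hp M.toCoxeterSystem
    have h2 : G1 M.toCoxeterSystem hp.isCartan (XX D l K) ≤ Subgroup.centralizer {t} := by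
      refine RGD.Sup_le fun z hz y hy => ?_
      obtain ⟨s, hs, rfl⟩ := (isRoot_iff hp M.toCoxeterSystem z).1 hz
      change (y : GL D.Idx K) ∈ XV D l K (vec D l s) at hy
      rw [XV_vec hp K hs, mem_rootSubgroup_iff hp.inList] at hy
      obtain ⟨a, ha⟩ := hy
      have h3 : y = xc hp (vec D l s) a := Subtype.ext (by rw [coe_xc hp hs, ha])
      rw [Subgroup.mem_centralizer_singleton_iff, h3]
      exact (mul_inv_eq_iff_eq_mul.1 (h s hs a)).symm
    rw [hG] at h2
    rw [Subgroup.mem_center_iff]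
    intro g
    exact Subgroup.mem_centralizer_singleton_iff.1 (h2 (Subgroup.mem_top g))
  rw [hZ, Subgroup.mem_bot] at h1
  exact h1

include hp in
/-- the torus is commutative -/
theorem tor_comm [Finite K] {s t : ↥(D.group K)} (hs : s ∈ TT D K) (ht : t ∈ TT D K) : s * t = t * s := by
  have h1 : s * t * s⁻¹ * t⁻¹ = 1 := by
    refine eq_one_of_tor hp fun r hr a => ?_
    have e1 := (act hp hr hs).2
    have e2 := (act hp hr ht).2
    have e3 := (act hp hr (inv_mem hs)).2
    have e4 := (act hp hr (inv_mem ht)).2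
    have key : ∀ {u : ↥(D.group K)} (hu : u ∈ TT D K), ch hp (vec D l r) u * ch hp (vec D l r) u⁻¹ = 1 := by
      intro u hu
      have e5 := (act hp hr hu).2
      have e6 := (act hp hr (inv_mem hu)).2
      have e7 : xc hp (vec D l r) (ch hp (vec D l r) u * (ch hp (vec D l r) u⁻¹ * 1)) = xc hp (vec D l r) 1 := by
        rw [← e5, ← e6]
        group
      have e8 := xc_inj hp hr e7
      rwa [mul_one] at e8
    have e5 : s * t * s⁻¹ * t⁻¹ * xc hp (vec D l r) a * (s * t * s⁻¹ * t⁻¹)⁻¹ =
        s * (t * (s⁻¹ * (t⁻¹ * xc hp (vec D l r) a * t⁻¹⁻¹) * s⁻¹⁻¹) * t⁻¹) * s⁻¹ := by group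
    rw [e5, e4, e3, e2, e1]
    congr 1
    have k1 := key hs
    have k2 := key ht
    linear_combination (ch hp (vec D l r) t * ch hp (vec D l r) t⁻¹ * a) * k1 + a * k2
  have h2 : s * t = t * s := by
    have : s * t = (s * t * s⁻¹ * t⁻¹) * (t * s) := by group
    rw [this, h1, one_mul]
  exact h2

end Hm

section Gal

variable {D : ChevalleyDatum} {l : ℕ} {M : CoxeterMatrix (Fin l)} (hp : IsType D l M)

/-- the action of the Galois group -/
@[instance_reducible]
def galAct (hD : InList D) (L : Type u) [Field L] [Algebra (ZMod 2) L] :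
    MulDistribMulAction (L ≃ₐ[ZMod 2] L) ↥(D.group L) where
  smul s k := bc hD (s : L →+* L) k
  one_smul _ := rfl
  mul_smul _ _ _ := rfl
  smul_one s := map_one (bc hD (s : L →+* L))
  smul_mul s a b := map_mul (bc hD (s : L →+* L)) a b

theorem zmod_two : ∀ a : ZMod 2, a ≠ 0 → a = 1 := by decide

theorem fixed_of {L : Type u} [Field L] [Finite L] [Algebra (ZMod 2) L] {c : L} (hc : ∀ s : L ≃ₐ[ZMod 2] L, s c = c) :
    ∃ a : ZMod 2, algebraMap (ZMod 2) L a = c := by
  have : FiniteDimensional (ZMod 2) L := Module.Finite.of_finite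
  exact (IsGalois.mem_range_algebraMap_iff_fixed (F := ZMod 2) (E := L) c).2 hc

theorem fx {L : Type u} [Field L] [Finite L] [Algebra (ZMod 2) L] {W : Type*} [Group W] (cs : CoxeterSystem M W) :
    letI := galAct hp.inList L
    Fx cs hp.isCartan (TT D (ZMod 2)) (nc hp (ZMod 2)) (XX D l (ZMod 2)) (TT D L) (nc hp L) (XX D l L)
      (bc hp.inList (algebraMap (ZMod 2) L)) (L ≃ₐ[ZMod 2] L) :=
  letI := galAct hp.inList L
  { hm := bc_hm hp cs _
    inj := bc_injective _ _
    act := fun s => bc_hm hp cs (s : L →+* L)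
    fix := fun s k => by
      change bc hp.inList (s : L →+* L) (bc hp.inList (algebraMap (ZMod 2) L) k) = _
      rw [bc_comp]
      congr 1
      congr 1
      exact RingHom.ext fun a => s.commutes a
    fT := fun t ht hfix => by
      refine ⟨1, one_mem _, ?_⟩
      rw [map_one]
      refine (eq_one_of_tor hp fun r hr a => ?_).symm
      obtain ⟨h0, h1⟩ := act hp hr ht
      rw [h1]
      have h2 : ch hp (vec D l r) t = 1 := by
        obtain ⟨b, hb⟩ := fixed_of (c := ch hp (vec D l r) t) fun s => by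
          have h3 : bc hp.inList (s : L →+* L) t = t := hfix s
          have h4 := congrArg (bc hp.inList (s : L →+* L)) (h1 1)
          rw [map_mul, map_mul, map_inv, h3, bc_xc hp _ hr, bc_xc hp _ hr, map_one, h1, mul_one] at h4
          exact (xc_inj hp hr h4).symm
        have h5 : b = 1 := zmod_two b fun h => h0 (by rw [← hb, h, map_zero])
        rw [← hb, h5, map_one]
      rw [h2, one_mul]
    fX := fun i x hx hfix => by
      have hr := (RootComb.good_of_mem hp.inList).simple_lt (lt_rank hp i)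
      change (x : GL D.Idx L) ∈ XV D l L (sr i) at hx
      rw [← vec_simple hp i, XV_vec hp L hr, mem_rootSubgroup_iff hp.inList] at hx
      obtain ⟨c, hc⟩ := hx
      have h3 : x = xc hp (vec D l (D.simple i)) c := Subtype.ext (by rw [coe_xc hp hr, hc])
      obtain ⟨a, ha⟩ := fixed_of (c := c) fun s => by
        have h1 : bc hp.inList (s : L →+* L) x = x := hfix s
        rw [h3, bc_xc hp _ hr] at h1
        exact xc_inj hp hr h1
      refine ⟨xc hp (vec D l (D.simple i)) a, ?_, ?_⟩
      · change ((xc hp (vec D l (D.simple i)) a : ↥(D.group (ZMod 2))) : GL D.Idx (ZMod 2)) ∈ XV D l (ZMod 2) (sr i)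
        rw [← vec_simple hp i, XV_vec hp (ZMod 2) hr, mem_rootSubgroup_iff hp.inList, coe_xc hp hr]
        exact ⟨a, rfl⟩
      · rw [bc_xc hp _ hr, ha, h3] }

end Gal

end Cfsg.Agent.H673.OC.Bc
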